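import Mathlib
import Cfsg.Agent.Lib.Helper74.O720.Defs

set_option autoImplicit false

namespace Cfsg.Agent.Lib.Helper74.O720

section general
variable {G : Type*} [Group G] [Finite G]

theorem ST_three {Q : Type*} [Group Q] (h : Nat.card Q = 3) (a b : Q) (ha : a ≠ 1) :
    b = 1 ∨ b = a ∨ b = a⁻¹ := by
  haveI : Fact (Nat.Prime 3) := ⟨Nat.prime_three⟩
  have hb : b ∈ Subgroup.zpowers a := mem_zpowers_of_prime_card h ha
  have h3 : a ^ 3 = 1 := by rw [← h]; exact pow_card_eq_one'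
  obtain ⟨k, rfl⟩ := hb
  have hk : a ^ k = a ^ (k % 3) := by
    conv_lhs => rw [← Int.emod_add_mul_ediv k 3]
    rw [zpow_add, zpow_mul]
    have : a ^ (3:ℤ) = 1 := by exact_mod_cast h3
    rw [this, one_zpow, mul_one]
  have h0 : 0 ≤ k % 3 := Int.emod_nonneg _ (by norm_num)
  have h1 : k % 3 < 3 := Int.emod_lt_of_pos _ (by norm_num)
  show a ^ k = 1 ∨ a ^ k = a ∨ a ^ k = a⁻¹
  rw [hk]
  generalize k % 3 = r at *
  interval_cases r
  · left; simp
  · right; left; simp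
  · right; right
    apply eq_inv_of_mul_eq_one_left
    have : a ^ (2:ℤ) = a ^ 2 := by norm_cast
    rw [this, ← pow_succ]
    exact h3

omit [Finite G] in
theorem ST_tri (P X : Subgroup G) (hP : Nat.card P = 9) (hPc : ∀ x ∈ P, ∀ y ∈ P, x * y = y * x)
    (hXP : X ≤ P) (hX : Nat.card X = 3) (u : G) (huP : u ∈ P) (hu : u ∉ X) (w : G) (hw : w ∈ P) :
    w ∈ X ∨ w * u⁻¹ ∈ X ∨ w * u ∈ X := by
  haveI hn : (X.subgroupOf P).Normal := ⟨fun n hn g => by
    have : g * n * g⁻¹ = n := by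
      have h1 : g * n = n * g := Subtype.ext (hPc _ g.2 _ n.2)
      rw [h1, mul_inv_cancel_right]
    rwa [this]⟩
  have hc : Nat.card (↥P ⧸ X.subgroupOf P) = 3 := by
    have h1 := Subgroup.card_mul_index (X.subgroupOf P)
    have h2 : Nat.card (X.subgroupOf P) = 3 := by
      rw [Nat.card_congr (Subgroup.subgroupOfEquivOfLe hXP).toEquiv, hX]
    rw [h2, hP] at h1
    have : (X.subgroupOf P).index = 3 := by omega
    exact this
  have ha : ((⟨u, huP⟩ : ↥P) : ↥P ⧸ X.subgroupOf P) ≠ 1 := by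
    rw [Ne, QuotientGroup.eq_one_iff]
    exact hu
  rcases ST_three hc _ ((⟨w, hw⟩ : ↥P) : ↥P ⧸ X.subgroupOf P) ha with h | h | h
  · left
    have h' : (⟨w, hw⟩ : ↥P) ∈ X.subgroupOf P := (QuotientGroup.eq_one_iff _).1 h
    exact h'
  · right; left
    have : (((⟨w, hw⟩ : ↥P) * (⟨u, huP⟩ : ↥P)⁻¹ : ↥P) : ↥P ⧸ X.subgroupOf P) = 1 := by
      rw [QuotientGroup.mk_mul, QuotientGroup.mk_inv, h, mul_inv_cancel]
    have h' : ((⟨w, hw⟩ : ↥P) * (⟨u, huP⟩ : ↥P)⁻¹ : ↥P) ∈ X.subgroupOf P :=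
      (QuotientGroup.eq_one_iff _).1 this
    exact h'
  · right; right
    have : (((⟨w, hw⟩ : ↥P) * (⟨u, huP⟩ : ↥P) : ↥P) : ↥P ⧸ X.subgroupOf P) = 1 := by
      rw [QuotientGroup.mk_mul, h, inv_mul_cancel]
    have h' : ((⟨w, hw⟩ : ↥P) * (⟨u, huP⟩ : ↥P) : ↥P) ∈ X.subgroupOf P :=
      (QuotientGroup.eq_one_iff _).1 this
    exact h'

omit [Finite G] in
theorem ST_X (X : Subgroup G) (hX : Nat.card X = 3) (x : G) (hx : x ∈ X) (hx1 : x ≠ 1) (y : G)
    (hy : y ∈ X) : y = 1 ∨ y = x ∨ y = x⁻¹ := by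
  have ha : (⟨x, hx⟩ : ↥X) ≠ 1 := fun e => hx1 (congrArg Subtype.val e)
  rcases ST_three hX _ (⟨y, hy⟩ : ↥X) ha with h | h | h
  · left; exact congrArg Subtype.val h
  · right; left; exact congrArg Subtype.val h
  · right; right; exact congrArg Subtype.val h

omit [Finite G] in
theorem ST_key (P X S : Subgroup G) (hP : Nat.card P = 9) (hPc : ∀ x ∈ P, ∀ y ∈ P, x * y = y * x)
    (hXP : X ≤ P) (hX : Nat.card X = 3) (hS : IsPGroup 2 S) (hf : S ⊓ Cz P = ⊥)
    (x : G) (hx : x ∈ X) (hx1 : x ≠ 1) (u : G) (huP : u ∈ P) (hu : u ∉ X) (t : G) (ht : t ∈ S)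
    (h1 : t * x * t⁻¹ = x) (h2 : t * u * t⁻¹ * u⁻¹ ∈ X) : t = 1 := by
  have hcx : Commute t x := by
    have : t * x = x * t := by
      calc t * x = t * x * t⁻¹ * t := by group
        _ = x * t := by rw [h1]
    exact this
  have hcX : ∀ y ∈ X, Commute t y := by
    intro y hy
    rcases ST_X X hX x hx hx1 y hy with rfl | rfl | rfl
    · exact Commute.one_right t
    · exact hcx
    · exact hcx.inv_right
  set y := t * u * t⁻¹ * u⁻¹ with hy
  have hcy : Commute t y := hcX y h2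
  have htu : t * u = y * u * t := by rw [hy]; group
  have hind : ∀ j : ℕ, t ^ j * u = y ^ j * u * t ^ j := by
    intro j
    induction j with
    | zero => simp
    | succ j ih =>
      calc t ^ (j + 1) * u = t * (t ^ j * u) := by rw [pow_succ', mul_assoc]
        _ = t * (y ^ j * u * t ^ j) := by rw [ih]
        _ = (t * y ^ j) * u * t ^ j := by simp only [mul_assoc]
        _ = (y ^ j * t) * u * t ^ j := by rw [(hcy.pow_right j).eq]
        _ = y ^ j * (t * u) * t ^ j := by simp only [mul_assoc]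
        _ = y ^ j * (y * u * t) * t ^ j := by rw [htu]
        _ = y ^ (j + 1) * u * t ^ (j + 1) := by rw [pow_succ, pow_succ']; simp only [mul_assoc]
  obtain ⟨k, hk⟩ := hS ⟨t, ht⟩
  have hk' : t ^ (2 ^ k) = 1 := congrArg Subtype.val hk
  have h3 := hind (2 ^ k)
  rw [hk', one_mul, mul_one] at h3
  have hy2 : y ^ (2 ^ k) = 1 := by
    have : y ^ (2 ^ k) * u = 1 * u := by rw [one_mul]; exact h3.symm
    exact mul_right_cancel this
  have hy3 : y ^ 3 = 1 := by
    have : (⟨y, h2⟩ : ↥X) ^ 3 = 1 := by rw [← hX]; exact pow_card_eq_one'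
    exact congrArg Subtype.val this
  have hy1 : y = 1 := by
    have := pow_gcd_eq_one.2 ⟨hy2, hy3⟩
    have hg : Nat.gcd (2 ^ k) 3 = 1 := Nat.Coprime.pow_left k (by norm_num)
    rwa [hg, pow_one] at this
  have hcu : Commute t u := by
    have : t * u = u * t := by rw [htu, hy1, one_mul]
    exact this
  have hmem : t ∈ Cz P := by
    rw [Subgroup.mem_centralizer_iff]
    intro w hw
    have hcw : Commute t w := by
      rcases ST_tri P X hP hPc hXP hX u huP hu w hw with h | h | h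
      · exact hcX w h
      · have : w = (w * u⁻¹) * u := by group
        rw [this]
        exact (hcX _ h).mul_right hcu
      · have : w = (w * u) * u⁻¹ := by group
        rw [this]
        exact (hcX _ h).mul_right hcu.inv_right
    exact hcw.eq.symm
  have : t ∈ S ⊓ Cz P := ⟨ht, hmem⟩
  rw [hf] at this
  exact Subgroup.mem_bot.1 this

/-- [ST] -/
theorem ST (P X S : Subgroup G) (hP : Nat.card P = 9) (hPc : ∀ x ∈ P, ∀ y ∈ P, x * y = y * x)
    (hXP : X ≤ P) (hX : Nat.card X = 3) (hS : IsPGroup 2 S) (hSP : S ≤ Nz P) (hSX : S ≤ Nz X)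
    (hf : S ⊓ Cz P = ⊥) : Nat.card S ≤ 4 := by
  classical
  have hXb : X ≠ ⊥ := by
    intro e
    rw [e, Subgroup.card_bot] at hX
    omega
  obtain ⟨⟨x, hx⟩, hx1'⟩ := Subgroup.ne_bot_iff_exists_ne_one.1 hXb
  have hx1 : x ≠ 1 := fun e => hx1' (Subtype.ext e)
  have hlt : X < P := lt_of_le_of_ne hXP (by
    intro e
    rw [e, hP] at hX
    omega)
  obtain ⟨u, huP, hu⟩ := SetLike.exists_of_lt hlt
  have hA : ∀ s ∈ S, s * x * s⁻¹ = x ∨ s * x * s⁻¹ = x⁻¹ := by
    intro s hs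
    have h1 : s * x * s⁻¹ ∈ X := (Subgroup.mem_normalizer_iff.1 (hSX hs) x).1 hx
    rcases ST_X X hX x hx hx1 _ h1 with h | h | h
    · exfalso
      apply hx1
      have : x = s⁻¹ * (s * x * s⁻¹) * s := by group
      rw [this, h]
      group
    · left; exact h
    · right; exact h
  have hB : ∀ s ∈ S, s * u * s⁻¹ * u⁻¹ ∈ X ∨ s * u * s⁻¹ * u ∈ X := by
    intro s hs
    have h1 : s * u * s⁻¹ ∈ P := (Subgroup.mem_normalizer_iff.1 (hSP hs) u).1 huP
    rcases ST_tri P X hP hPc hXP hX u huP hu _ h1 with h | h | h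
    · exact absurd ((Subgroup.mem_normalizer_iff.1 (hSX hs) u).2 h) hu
    · left; exact h
    · right; exact h
  let f : ↥S → Bool × Bool := fun s =>
    (decide ((s : G) * x * (s : G)⁻¹ = x), decide ((s : G) * u * (s : G)⁻¹ * u⁻¹ ∈ X))
  have hinj : Function.Injective f := by
    intro s s' hss
    have e1 : ((s : G) * x * (s : G)⁻¹ = x) ↔ ((s' : G) * x * (s' : G)⁻¹ = x) := by
      have := congrArg Prod.fst hss
      simpa [f] using this
    have e2 : ((s : G) * u * (s : G)⁻¹ * u⁻¹ ∈ X) ↔ ((s' : G) * u * (s' : G)⁻¹ * u⁻¹ ∈ X) := by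
      have := congrArg Prod.snd hss
      simpa [f] using this
    have g1 : (s : G) * x * (s : G)⁻¹ = (s' : G) * x * (s' : G)⁻¹ := by
      rcases hA s s.2 with h | h
      · rw [h, e1.1 h]
      · rcases hA s' s'.2 with h' | h'
        · rw [e1.2 h', h']
        · rw [h, h']
    have g2 : (s : G) * u * (s : G)⁻¹ * ((s' : G) * u * (s' : G)⁻¹)⁻¹ ∈ X := by
      by_cases h : (s : G) * u * (s : G)⁻¹ * u⁻¹ ∈ X
      · have h' := e2.1 h
        have : (s : G) * u * (s : G)⁻¹ * ((s' : G) * u * (s' : G)⁻¹)⁻¹ =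
            ((s : G) * u * (s : G)⁻¹ * u⁻¹) * ((s' : G) * u * (s' : G)⁻¹ * u⁻¹)⁻¹ := by group
        rw [this]
        exact X.mul_mem h (X.inv_mem h')
      · have h' : ¬ (s' : G) * u * (s' : G)⁻¹ * u⁻¹ ∈ X := fun k => h (e2.2 k)
        have k1 := (hB s s.2).resolve_left h
        have k2 := (hB s' s'.2).resolve_left h'
        have : (s : G) * u * (s : G)⁻¹ * ((s' : G) * u * (s' : G)⁻¹)⁻¹ =
            ((s : G) * u * (s : G)⁻¹ * u) * ((s' : G) * u * (s' : G)⁻¹ * u)⁻¹ := by group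
        rw [this]
        exact X.mul_mem k1 (X.inv_mem k2)
    have ht : (s' : G)⁻¹ * (s : G) ∈ S := S.mul_mem (S.inv_mem s'.2) s.2
    have t1 : ((s' : G)⁻¹ * (s : G)) * x * ((s' : G)⁻¹ * (s : G))⁻¹ = x := by
      have : ((s' : G)⁻¹ * (s : G)) * x * ((s' : G)⁻¹ * (s : G))⁻¹ =
          (s' : G)⁻¹ * ((s : G) * x * (s : G)⁻¹) * (s' : G) := by group
      rw [this, g1]
      group
    have t2 : ((s' : G)⁻¹ * (s : G)) * u * ((s' : G)⁻¹ * (s : G))⁻¹ * u⁻¹ ∈ X := by
      have h3 := (Subgroup.mem_normalizer_iff.1 (inv_mem (hSX s'.2)) _).1 g2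
      have : ((s' : G)⁻¹ * (s : G)) * u * ((s' : G)⁻¹ * (s : G))⁻¹ * u⁻¹ =
          (s' : G)⁻¹ * ((s : G) * u * (s : G)⁻¹ * ((s' : G) * u * (s' : G)⁻¹)⁻¹) * ((s' : G)⁻¹)⁻¹ := by
        group
      rw [this]
      exact h3
    have := ST_key P X S hP hPc hXP hX hS hf x hx hx1 u huP hu _ ht t1 t2
    exact Subtype.ext (inv_mul_eq_one.1 this).symm
  have := Nat.card_le_card_of_injective f hinj
  simpa using this

end general

end Cfsg.Agent.Lib.Helper74.O720
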